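import Cfsg.Prelude.Def_Transfer
import Mathlib.GroupTheory.Sylow
import Mathlib.GroupTheory.PGroup
import Mathlib.Tactic

/-! Elementary abelian subgroups of a 2-group with a large normal elementary abelian subgroup. -/

set_option autoImplicit false

namespace Cfsg.Agent.ElabChain

open Cfsg

variable {X : Type*} [Group X]

theorem el_comm {A : Subgroup X} (hA : IsElementaryAbelian 2 A) {a b : X} (ha : a ∈ A) (hb : b ∈ A) :
    a * b = b * a := by
  have := hA.1
  exact congrArg Subtype.val (mul_comm' (⟨a, ha⟩ : ↥A) ⟨b, hb⟩)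

theorem el_le {A B : Subgroup X} (hA : IsElementaryAbelian 2 A) (h : B ≤ A) :
    IsElementaryAbelian 2 B :=
  ⟨⟨⟨fun x y => Subtype.ext (el_comm hA (h x.2) (h y.2))⟩⟩, fun b hb => hA.2 b (h hb)⟩

theorem el_sup {A B : Subgroup X} (hA : IsElementaryAbelian 2 A) (hB : IsElementaryAbelian 2 B)
    (hc : ∀ a ∈ A, ∀ b ∈ B, a * b = b * a) : IsElementaryAbelian 2 (A ⊔ B) := by
  haveI : IsMulCommutative ↥(A ⊔ B) := by
    rw [Subgroup.sup_eq_closure]
    refine Subgroup.isMulCommutative_closure fun a ha b hb => ?_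
    rcases ha with ha | ha <;> rcases hb with hb | hb
    · exact el_comm hA ha hb
    · exact hc a ha b hb
    · exact (hc b hb a ha).symm
    · exact el_comm hB ha hb
  letI : CommGroup ↥(A ⊔ B) := { (inferInstance : Group ↥(A ⊔ B)) with mul_comm := mul_comm' }
  refine ⟨inferInstance, fun x hx => ?_⟩
  have key : (⊤ : Subgroup ↥(A ⊔ B)) ≤ (powMonoidHom 2 : ↥(A ⊔ B) →* ↥(A ⊔ B)).ker := by
    rw [← Subgroup.subgroupOf_self, Subgroup.subgroupOf_sup le_sup_left le_sup_right]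
    refine sup_le (fun y hy => ?_) (fun y hy => ?_)
    · exact MonoidHom.mem_ker.2 (Subtype.ext ((SubmonoidClass.coe_pow y 2).trans (hA.2 _ hy)))
    · exact MonoidHom.mem_ker.2 (Subtype.ext ((SubmonoidClass.coe_pow y 2).trans (hB.2 _ hy)))
  exact congrArg Subtype.val (key (Subgroup.mem_top ⟨x, hx⟩))

theorem el_zpowers {a : X} (ha : a ^ 2 = 1) : IsElementaryAbelian 2 (Subgroup.zpowers a) := by
  refine ⟨inferInstance, ?_⟩
  rintro _ ⟨k, rfl⟩
  rw [← zpow_natCast (a ^ k) 2, ← zpow_mul, mul_comm, zpow_mul, zpow_natCast, ha, one_zpow]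

/-- An involution fixes at least the square root of an elementary abelian group it normalizes. -/
theorem card_le_sq [Finite X] {F : Subgroup X} {a : X} (hF : IsElementaryAbelian 2 F) (ha : a ^ 2 = 1)
    (hn : ∀ f ∈ F, a * f * a⁻¹ ∈ F) :
    Nat.card ↥F ≤ Nat.card ↥(F ⊓ Subgroup.centralizer ({a} : Set X)) ^ 2 := by
  haveI := hF.1
  letI : CommGroup ↥F := { (inferInstance : Group ↥F) with mul_comm := mul_comm' }
  have hinv : ∀ f ∈ F, f⁻¹ = f := fun f hf => inv_eq_of_mul_eq_one_right (by rw [← sq]; exact hF.2 f hf)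
  let θ : ↥F →* ↥F :=
    { toFun := fun f => ⟨a * f * a⁻¹, hn f f.2⟩
      map_one' := Subtype.ext (by simp)
      map_mul' := fun f g => Subtype.ext (by simp [mul_assoc]) }
  let δ : ↥F →* ↥F :=
    { toFun := fun f => θ f * f
      map_one' := by simp
      map_mul' := fun f g => by rw [map_mul]; exact mul_mul_mul_comm _ _ _ _ }
  have hfix : ∀ f : ↥F, θ f = f → (f : X) ∈ F ⊓ Subgroup.centralizer ({a} : Set X) := fun f hf => by
    refine ⟨f.2, Subgroup.mem_centralizer_iff.2 fun y hy => ?_⟩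
    rw [Set.mem_singleton_iff.1 hy]
    exact mul_inv_eq_iff_eq_mul.1 (congrArg Subtype.val hf)
  have hθθ : ∀ f : ↥F, θ (θ f) = f := fun f => Subtype.ext (by
    show a * (a * (f : X) * a⁻¹) * a⁻¹ = f
    rw [show a * (a * (f : X) * a⁻¹) * a⁻¹ = a ^ 2 * f * (a ^ 2)⁻¹ by rw [sq]; group, ha]; group)
  have hker : Nat.card ↥δ.ker ≤ Nat.card ↥(F ⊓ Subgroup.centralizer ({a} : Set X)) := by
    refine Nat.card_le_card_of_injective (fun f => ⟨((f : ↥F) : X), hfix f.1 ?_⟩)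
      (fun f g e => Subtype.ext (Subtype.ext (congrArg Subtype.val e :)))
    have h : θ f.1 * f.1 = 1 := MonoidHom.mem_ker.1 f.2
    rw [mul_eq_one_iff_eq_inv] at h
    rw [h]; exact Subtype.ext (hinv _ f.1.2)
  have hrange : Nat.card ↥δ.range ≤ Nat.card ↥(F ⊓ Subgroup.centralizer ({a} : Set X)) := by
    refine Nat.card_le_card_of_injective (fun f => ⟨((f : ↥F) : X), hfix f.1 ?_⟩)
      (fun f g e => Subtype.ext (Subtype.ext (congrArg Subtype.val e :)))
    obtain ⟨g, hg⟩ := f.2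
    rw [← hg]
    show θ (θ g * g) = θ g * g
    rw [map_mul, hθθ, mul_comm]
  calc Nat.card ↥F = Nat.card ↥δ.ker * δ.ker.index := δ.ker.card_mul_index.symm
    _ = Nat.card ↥δ.ker * Nat.card ↥δ.range := by rw [Subgroup.index_ker]
    _ ≤ _ := by rw [sq]; exact Nat.mul_le_mul hker hrange

/-- Subgroups of prescribed order between two subgroups of a 2-group. -/
theorem exists_between [Finite X] (hX : IsPGroup 2 X) {D W : Subgroup X} (hDW : D ≤ W) {m : ℕ}
    (hD : Nat.card ↥D ≤ 2 ^ m) (hW : 2 ^ m ≤ Nat.card ↥W) :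
    ∃ K : Subgroup X, D ≤ K ∧ K ≤ W ∧ Nat.card ↥K = 2 ^ m := by
  haveI : Fact (Nat.Prime 2) := ⟨Nat.prime_two⟩
  obtain ⟨j, hj⟩ := IsPGroup.iff_card.1 (hX.to_subgroup W)
  obtain ⟨i, hi⟩ := IsPGroup.iff_card.1 (hX.to_subgroup D)
  rw [hi, Nat.pow_le_pow_iff_right (by norm_num)] at hD
  rw [hj, Nat.pow_le_pow_iff_right (by norm_num)] at hW
  obtain ⟨K, hK, hDK⟩ := Sylow.exists_subgroup_card_pow_prime_le 2 (G := ↥W)
    (hj ▸ pow_dvd_pow 2 hW) (D.subgroupOf W)
    ((Nat.card_congr (Subgroup.subgroupOfEquivOfLe hDW).toEquiv).trans hi) hD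
  refine ⟨K.map W.subtype, fun x hx => ⟨⟨x, hDW hx⟩, hDK hx, rfl⟩, Subgroup.map_subtype_le _, ?_⟩
  rw [Subgroup.card_map_of_injective W.subtype_injective, hK]

theorem two_mul_le [Finite X] (hX : IsPGroup 2 X) {D W : Subgroup X} (h : D < W) :
    2 * Nat.card ↥D ≤ Nat.card ↥W := by
  haveI : Fact (Nat.Prime 2) := ⟨Nat.prime_two⟩
  obtain ⟨j, hj⟩ := IsPGroup.iff_card.1 (hX.to_subgroup W)
  obtain ⟨i, hi⟩ := IsPGroup.iff_card.1 (hX.to_subgroup D)
  have hlt : Nat.card ↥D < Nat.card ↥W := by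
    rcases (Subgroup.card_le_of_le h.le).lt_or_eq with h' | h'
    · exact h'
    · exact absurd (Subgroup.eq_of_le_of_card_ge h.le h'.ge) h.ne
  rw [hi, hj] at hlt ⊢
  rw [← pow_succ']
  exact Nat.pow_le_pow_right (by norm_num) ((Nat.pow_lt_pow_iff_right (by norm_num)).1 hlt)

theorem four_le [Finite X] (hX : IsPGroup 2 X) {C : Subgroup X} (h : 3 ≤ Nat.card ↥C) : 4 ≤ Nat.card ↥C := by
  haveI : Fact (Nat.Prime 2) := ⟨Nat.prime_two⟩
  obtain ⟨j, hj⟩ := IsPGroup.iff_card.1 (hX.to_subgroup C)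
  rcases j with _ | _ | j
  · omega
  · omega
  · calc 4 = 2 ^ 2 := rfl
      _ ≤ 2 ^ (j + 2) := Nat.pow_le_pow_right (by norm_num) (by omega)
      _ = _ := hj.symm

theorem eight_le [Finite X] (hX : IsPGroup 2 X) {C : Subgroup X} (h : 5 ≤ Nat.card ↥C) : 8 ≤ Nat.card ↥C := by
  haveI : Fact (Nat.Prime 2) := ⟨Nat.prime_two⟩
  obtain ⟨j, hj⟩ := IsPGroup.iff_card.1 (hX.to_subgroup C)
  rcases j with _ | _ | _ | j
  · omega
  · omega
  · omega
  · calc 8 = 2 ^ 3 := rfl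
      _ ≤ 2 ^ (j + 3) := Nat.pow_le_pow_right (by norm_num) (by omega)
      _ = _ := hj.symm

/-- A nontrivial normal subgroup contains a central involution. -/
theorem exists_central [Finite X] (hX : IsPGroup 2 X) {E : Subgroup X} [E.Normal]
    (hE : IsElementaryAbelian 2 E) (h : 1 < Nat.card ↥E) :
    ∃ z ∈ E, z ≠ 1 ∧ z ^ 2 = 1 ∧ ∀ g : X, z * g = g * z := by
  haveI : Fact (Nat.Prime 2) := ⟨Nat.prime_two⟩
  letI : MulAction X ↥E := MulAction.compHom ↥E (MulAut.conjNormal (H := E))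
  have hval : ∀ (g : X) (x : ↥E), ((g • x : ↥E) : X) = g * x * g⁻¹ := fun _ _ => rfl
  haveI := Finite.one_lt_card_iff_nontrivial.1 h
  obtain ⟨i, hi, hc⟩ := (hX.to_subgroup E).nontrivial_iff_card.1 ‹_›
  have h1 : (1 : ↥E) ∈ MulAction.fixedPoints X ↥E := fun g => Subtype.ext (by simp [hval])
  obtain ⟨b, hb, hb1⟩ := hX.exists_fixed_point_of_prime_dvd_card_of_fixed_point ↥E
    (hc ▸ dvd_pow_self 2 (Nat.pos_iff_ne_zero.1 hi)) h1
  refine ⟨b, b.2, fun e => hb1 (Subtype.ext e).symm, hE.2 _ b.2, fun g => ?_⟩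
  have := congrArg Subtype.val (hb g)
  rw [hval, mul_inv_eq_iff_eq_mul] at this
  exact this.symm

theorem norm_mem {E : Subgroup X} [hn : E.Normal] (a : X) : ∀ f ∈ E, a * f * a⁻¹ ∈ E :=
  fun f hf => hn.conj_mem f hf a

/-- Fixed points of two commuting involutions. -/
theorem card_le_fourth [Finite X] {E : Subgroup X} [E.Normal] (hE : IsElementaryAbelian 2 E)
    {a b : X} (hb : b ^ 2 = 1) (hab : a * b = b * a) :
    Nat.card ↥(E ⊓ Subgroup.centralizer ({a} : Set X)) ≤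
      Nat.card ↥(E ⊓ Subgroup.centralizer ({a} : Set X) ⊓ Subgroup.centralizer ({b} : Set X)) ^ 2 := by
  refine card_le_sq (el_le hE inf_le_left) hb fun f hf => ⟨norm_mem b f hf.1, ?_⟩
  refine Subgroup.mem_centralizer_iff.2 fun y hy => ?_
  rw [Set.mem_singleton_iff.1 hy]
  have h1 : Commute a f := Subgroup.mem_centralizer_iff.1 hf.2 a rfl
  exact ((Commute.mul_right (show Commute a b from hab) h1).mul_right (show Commute a b from hab).inv_right).eq

theorem comm_centralized {a f : X} (hf : f ∈ Subgroup.centralizer ({a} : Set X)) : a * f = f * a :=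
  Subgroup.mem_centralizer_iff.1 hf a rfl

end Cfsg.Agent.ElabChain
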